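import Cfsg.Agent.Lib.Helper17.E6I.DefsE
import Cfsg.Agent.Lib.Helper8.E6I.E1

set_option autoImplicit false
set_option linter.unusedSimpArgs false

/-! Farm E6I (helper17, S2175), piece E9: fusion 4A1 → 3A1. -/

namespace Cfsg.Agent.Lib.Helper88.E6I

open Cfsg.Lie Cfsg.Agent.Lib.Helper18 Cfsg.Agent.Lib.Helper17 Cfsg.Agent.Lib.Helper36
  Cfsg.Agent.Lib.Helper6 Matrix Cfsg.Agent.Lib.Helper17.E6I Cfsg.Agent.Lib.Helper8.E6I

variable {F : Type*} [Field F] (hB : Base chevE6 F)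

theorem E9_sq [CharP F 2] (r : ℕ) : hB.xg r 1 * hB.xg r 1 = 1 := by
  rw [hB.xg_add, CharTwo.add_self_eq_zero, hB.xg_zero]

theorem E9_sq' [CharP F 2] (r : ℕ) (w : GL chevE6.Idx F) : hB.xg r 1 * (hB.xg r 1 * w) = w := by
  rw [← mul_assoc, E9_sq, one_mul]

theorem E9_inv [CharP F 2] (r : ℕ) : (hB.xg r 1)⁻¹ = hB.xg r 1 :=
  inv_eq_of_mul_eq_one_left (E9_sq hB r)

/-- sorting rule, no sum -/
theorem E9_sw (r s : ℕ) (h : s < r ∧ 36 ≤ s ∧ r < 72 ∧ e6add r s = none) :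
    hB.xg r 1 * hB.xg s 1 = hB.xg s 1 * hB.xg r 1 :=
  e6_comm_none hB r s (by omega) h.2.2.1 h.2.1 (by omega) h.2.2.2 1 1

theorem E9_sw' (r s : ℕ) (h : s < r ∧ 36 ≤ s ∧ r < 72 ∧ e6add r s = none) (w : GL chevE6.Idx F) :
    hB.xg r 1 * (hB.xg s 1 * w) = hB.xg s 1 * (hB.xg r 1 * w) := by
  rw [← mul_assoc, E9_sw hB r s h, mul_assoc]

/-- sorting rule, with a sum -/
theorem E9_ss [CharP F 2] (r s k : ℕ) (h : 36 ≤ s ∧ s < 72 ∧ 36 ≤ r ∧ r < 72 ∧ e6add r s = some k) :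
    hB.xg r 1 * hB.xg s 1 = hB.xg s 1 * (hB.xg k 1 * hB.xg r 1) := by
  have := e6_conj_some hB r s k h.2.2.1 h.2.2.2.1 h.1 h.2.1 h.2.2.2.2 1 1
  rw [mul_one] at this
  rw [← mul_assoc, ← this]
  group

theorem E9_ss' [CharP F 2] (r s k : ℕ)
    (h : 36 ≤ s ∧ s < 72 ∧ 36 ≤ r ∧ r < 72 ∧ e6add r s = some k) (w : GL chevE6.Idx F) :
    hB.xg r 1 * (hB.xg s 1 * w) = hB.xg s 1 * (hB.xg k 1 * (hB.xg r 1 * w)) := by
  rw [← mul_assoc, E9_ss hB r s k h]
  simp only [mul_assoc]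

theorem fusion [CharP F 2] : ∃ g ∈ chevE6.group F,
    g * CG.lp hB [42, 53, 37, 46] (fun _ => 1) * g⁻¹ = CG.lp hB [42, 46, 37] (fun _ => 1) := by
  have hm : ∀ r, r < 72 → hB.xg r 1 ∈ chevE6.group F := fun r hr => hB.xg_mem_group hr 1
  refine ⟨hB.xg 40 1 * hB.xg 47 1 * hB.xg 50 1 * hB.xg 43 1,
    mul_mem (mul_mem (mul_mem (hm 40 (by norm_num)) (hm 47 (by norm_num))) (hm 50 (by norm_num)))
      (hm 43 (by norm_num)), ?_⟩
  have a0 := E9_ss hB 43 37 44 (by decide +kernel)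
  have b0 := E9_ss' hB 43 37 44 (by decide +kernel)
  have a1 := E9_ss hB 47 37 48 (by decide +kernel)
  have b1 := E9_ss' hB 47 37 48 (by decide +kernel)
  have a2 := E9_ss hB 50 37 51 (by decide +kernel)
  have b2 := E9_ss' hB 50 37 51 (by decide +kernel)
  have a3 := E9_ss hB 42 40 44 (by decide +kernel)
  have b3 := E9_ss' hB 42 40 44 (by decide +kernel)
  have a4 := E9_ss hB 46 40 48 (by decide +kernel)
  have b4 := E9_ss' hB 46 40 48 (by decide +kernel)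
  have a5 := E9_ss hB 50 40 53 (by decide +kernel)
  have b5 := E9_ss' hB 50 40 53 (by decide +kernel)
  have a6 := E9_ss hB 47 42 50 (by decide +kernel)
  have b6 := E9_ss' hB 47 42 50 (by decide +kernel)
  have a7 := E9_ss hB 48 42 51 (by decide +kernel)
  have b7 := E9_ss' hB 48 42 51 (by decide +kernel)
  have a8 := E9_ss hB 46 43 50 (by decide +kernel)
  have b8 := E9_ss' hB 46 43 50 (by decide +kernel)
  have a9 := E9_ss hB 48 43 53 (by decide +kernel)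
  have b9 := E9_ss' hB 48 43 53 (by decide +kernel)
  have a10 := E9_ss hB 46 44 51 (by decide +kernel)
  have b10 := E9_ss' hB 46 44 51 (by decide +kernel)
  have a11 := E9_ss hB 47 44 53 (by decide +kernel)
  have b11 := E9_ss' hB 47 44 53 (by decide +kernel)
  simp only [CG.lp_cons, CG.lp_nil, mul_one, _root_.mul_inv_rev, E9_inv hB, mul_assoc]
  simp (disch := decide +kernel) only [E9_sq hB, E9_sq' hB, E9_sw hB, E9_sw' hB, mul_one, a0, b0, a1, b1, a2, b2, a3, b3, a4, b4, a5, b5, a6, b6, a7, b7, a8, b8, a9, b9, a10, b10, a11, b11]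

end Cfsg.Agent.Lib.Helper88.E6I
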